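import Cfsg.Agent.H0.EO73C.D
set_option maxRecDepth 100000
set_option Elab.async false
set_option linter.unusedSectionVars false
namespace H0.EO73C
open H0 BN 
theorem c0 : Model.fixP R [1, 0] [[17, 21, 23, 23, 24, 25]] = true := by decide +kernel
theorem c1 : Model.growP R [[17, 21, 23, 23, 24, 25]] [0, 0] 2 3 = true := by decide +kernel
theorem c2 : Model.fixP R [0] [[18, 21, 21, 23], [20, 24], [22, 25, 25]] = true := by decide +kernel
theorem c3 : Model.growP R [[18, 21, 21, 23], [20, 24], [22, 25, 25]] [0, 1, 2, 0, 1, 2] 1 27 = true := by decide +kernel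
theorem c4 : Model.fixP R [] [[17], [18], [19], [20], [21], [23], [25]] = true := by decide +kernel
theorem c5 : Model.growP R [[17], [18], [19], [20], [21], [23], [25]] [0, 1, 2, 3, 4, 6, 2, 5, 0, 1] 0 243 = true := by decide +kernel
theorem c6 : pairsB R [256, 2, 306, 225, 1, 0] (((pcE 3 [17, 18, 19, 20, 21, 22, 23, 24, 25] sW).drop 0).take 45) = true := by decide +kernel
theorem c7 : pairsB R [256, 2, 306, 225, 1, 0] (((chE 3 [17, 18, 19, 20, 21, 22, 23, 24, 25] sL0).drop 0).take 400) = true := by decide +kernel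
theorem c8 : chainB sS1 sL0 (bitsL [9, 81, 243, 729, 4, 10, 972]) = true := by decide +kernel
theorem c9 : pairsB R [256, 2, 306, 225, 1, 0] (((chE 3 [17, 18, 19, 20, 21, 22, 23, 24, 25] sL1).drop 0).take 400) = true := by decide +kernel
theorem c10 : chainB sS2 sL1 sS1 = true := by decide +kernel
theorem c11 : pairsB R [256, 2, 306, 225, 1, 0] (((chE 3 [17, 18, 19, 20, 21, 22, 23, 24, 25] sL2).drop 0).take 400) = true := by decide +kernel
theorem c12 : chainB sS3 sL2 sS2 = true := by decide +kernel
theorem c13 : pairsB R [256, 2, 306, 225, 1, 0] (((chE 3 [17, 18, 19, 20, 21, 22, 23, 24, 25] sL3).drop 0).take 400) = true := by decide +kernel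
theorem c14 : chainB sS4 sL3 sS3 = true := by decide +kernel
theorem c15 : pairsB R [256, 2, 306, 225, 1, 0] (((chE 3 [17, 18, 19, 20, 21, 22, 23, 24, 25] sL4).drop 0).take 400) = true := by decide +kernel
theorem c16 : chainB sS5 sL4 sS4 = true := by decide +kernel
theorem c17 : pairsB R [256, 2, 306, 225, 1, 0] (((chE 3 [17, 18, 19, 20, 21, 22, 23, 24, 25] sL5).drop 0).take 400) = true := by decide +kernel
theorem c18 : chainB sS6 sL5 sS5 = true := by decide +kernel
end H0.EO73C
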