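import Cfsg.Agent.H0.EO73C.D
set_option maxRecDepth 100000
set_option Elab.async false
set_option linter.unusedSectionVars false
namespace H0.EO73C
open H0 BN 
theorem c19 : pairsB R [256, 2, 306, 225, 1, 0] (((chE 3 [17, 18, 19, 20, 21, 22, 23, 24, 25] sL6).drop 0).take 400) = true := by decide +kernel
theorem c20 : chainB sS7 sL6 sS6 = true := by decide +kernel
theorem c21 : pairsB R [256, 2, 306, 225, 1, 0] (((chE 3 [17, 18, 19, 20, 21, 22, 23, 24, 25] sL7).drop 0).take 400) = true := by decide +kernel
theorem c22 : chainB sS8 sL7 sS7 = true := by decide +kernel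
theorem c23 : pairsB R [256, 2, 306, 225, 1, 0] (((chE 3 [17, 18, 19, 20, 21, 22, 23, 24, 25] sL8).drop 0).take 400) = true := by decide +kernel
theorem c24 : chainB sS9 sL8 sS8 = true := by decide +kernel
theorem c25 : pairsB R [256, 2, 306, 225, 1, 0] (((chE 3 [17, 18, 19, 20, 21, 22, 23, 24, 25] sL9).drop 0).take 400) = true := by decide +kernel
theorem c26 : chainB sS10 sL9 sS9 = true := by decide +kernel
theorem c27 : pairsB R [256, 2, 306, 225, 1, 0] (((chE 3 [17, 18, 19, 20, 21, 22, 23, 24, 25] sL10).drop 0).take 400) = true := by decide +kernel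
theorem c28 : chainB sS11 sL10 sS10 = true := by decide +kernel
theorem c29 : pairsB R [256, 2, 306, 225, 1, 0] (((chE 3 [17, 18, 19, 20, 21, 22, 23, 24, 25] sL11).drop 0).take 400) = true := by decide +kernel
end H0.EO73C
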