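import Cfsg.Agent.H0.EO73C.D
set_option maxRecDepth 100000
set_option Elab.async false
set_option linter.unusedSectionVars false
namespace H0.EO73C
open H0 BN 
theorem c30 : chainB sS12 sL11 sS11 = true := by decide +kernel
theorem c31 : pairsB R [256, 2, 306, 225, 1, 0] (((chE 3 [17, 18, 19, 20, 21, 22, 23, 24, 25] sL12).drop 0).take 295) = true := by decide +kernel
theorem c32 : chainB sS13 sL12 sS12 = true := by decide +kernel
theorem c33 : needI R [19, 0] 3 (3 ^ 1) [17, 18, 19, 20, 21, 22, 23, 24, 25] sS13 0 729 = true := by decide +kernel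
theorem c34 : needI R [19, 0] 3 (3 ^ 1) [17, 18, 19, 20, 21, 22, 23, 24, 25] sS13 729 729 = true := by decide +kernel
theorem c35 : needI R [19, 0] 3 (3 ^ 1) [17, 18, 19, 20, 21, 22, 23, 24, 25] sS13 1458 729 = true := by decide +kernel
theorem c36 : needI R [19, 0] 3 (3 ^ 1) [17, 18, 19, 20, 21, 22, 23, 24, 25] sS13 2187 729 = true := by decide +kernel
theorem c37 : needI R [19, 0] 3 (3 ^ 1) [17, 18, 19, 20, 21, 22, 23, 24, 25] sS13 2916 729 = true := by decide +kernel
theorem c38 : needI R [19, 0] 3 (3 ^ 1) [17, 18, 19, 20, 21, 22, 23, 24, 25] sS13 3645 729 = true := by decide +kernel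
end H0.EO73C
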