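import Cfsg.Agent.H0.EO73C.D
set_option maxRecDepth 100000
set_option Elab.async false
set_option linter.unusedSectionVars false
namespace H0.EO73C
open H0 BN 
theorem c39 : needI R [19, 0] 3 (3 ^ 1) [17, 18, 19, 20, 21, 22, 23, 24, 25] sS13 4374 729 = true := by decide +kernel
theorem c40 : needI R [19, 0] 3 (3 ^ 1) [17, 18, 19, 20, 21, 22, 23, 24, 25] sS13 5103 729 = true := by decide +kernel
theorem c41 : needI R [19, 0] 3 (3 ^ 1) [17, 18, 19, 20, 21, 22, 23, 24, 25] sS13 5832 729 = true := by decide +kernel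
theorem c42 : needI R [19, 0] 3 (3 ^ 1) [17, 18, 19, 20, 21, 22, 23, 24, 25] sS13 6561 729 = true := by decide +kernel
theorem c43 : needI R [19, 0] 3 (3 ^ 1) [17, 18, 19, 20, 21, 22, 23, 24, 25] sS13 7290 729 = true := by decide +kernel
theorem c44 : needI R [19, 0] 3 (3 ^ 1) [17, 18, 19, 20, 21, 22, 23, 24, 25] sS13 8019 729 = true := by decide +kernel
theorem c45 : needI R [19, 0] 3 (3 ^ 1) [17, 18, 19, 20, 21, 22, 23, 24, 25] sS13 8748 729 = true := by decide +kernel
end H0.EO73C
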