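import Cfsg.Agent.H0.EO73C.D
set_option maxRecDepth 100000
set_option Elab.async false
set_option linter.unusedSectionVars false
namespace H0.EO73C
open H0 BN 
theorem c53 : needI R [19, 0] 3 (3 ^ 1) [17, 18, 19, 20, 21, 22, 23, 24, 25] sS13 14580 729 = true := by decide +kernel
theorem c54 : needI R [19, 0] 3 (3 ^ 1) [17, 18, 19, 20, 21, 22, 23, 24, 25] sS13 15309 729 = true := by decide +kernel
theorem c55 : needI R [19, 0] 3 (3 ^ 1) [17, 18, 19, 20, 21, 22, 23, 24, 25] sS13 16038 729 = true := by decide +kernel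
theorem c56 : needI R [19, 0] 3 (3 ^ 1) [17, 18, 19, 20, 21, 22, 23, 24, 25] sS13 16767 729 = true := by decide +kernel
theorem c57 : needI R [19, 0] 3 (3 ^ 1) [17, 18, 19, 20, 21, 22, 23, 24, 25] sS13 17496 729 = true := by decide +kernel
theorem c58 : needI R [19, 0] 3 (3 ^ 1) [17, 18, 19, 20, 21, 22, 23, 24, 25] sS13 18225 729 = true := by decide +kernel
theorem c59 : needI R [19, 0] 3 (3 ^ 1) [17, 18, 19, 20, 21, 22, 23, 24, 25] sS13 18954 729 = true := by decide +kernel
theorem c60 : pairsB R [256, 2, 306, 225, 1, 0] ((((List.finRange 7).map fun i => (wd 3 [17, 18, 19, 20, 21, 22, 23, 24, 25] ([9, 81, 243, 729, 4, 10, 972].getD i 0), W.getD i [])).drop 0).take 7) = true := by decide +kernel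
theorem c61 : defsChk R defs 17 = true := by decide +kernel
end H0.EO73C
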